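import Mathlib
import Cfsg.Agent.Lib.Helper74.O720.Defs
import Cfsg.Agent.Lib.Helper3.O720.ORB

set_option autoImplicit false

/-! O720 farm (helper74), piece IG -/

namespace Cfsg.Agent.Lib.Helper74.O720

variable {G : Type*} [Group G] [Finite G]

/-- [IG] -/
theorem IG (h : Nat.card G = 720) (M : Subgroup G) (hM : Nat.card M = 72) (g : G) (hg : g ∉ M) :
    8 ≤ Nat.card (Ig M g) ∧ Nat.card (Ig M g) ∣ 72 := by
  have horb := ORB M M g
  rw [hM] at horb
  have hidx : Nat.card (G ⧸ M) = 10 := by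
    have h1 := Subgroup.card_mul_index M
    rw [hM, h] at h1
    have h2 : M.index = 10 := by omega
    exact h2
  have hnot : ((1 : G) : G ⧸ M) ∉ MulAction.orbit M (g : G ⧸ M) := by
    rintro ⟨m, hm⟩
    have h1 : ((( m : G) * g : G) : G ⧸ M) = ((1 : G) : G ⧸ M) := hm
    rw [QuotientGroup.eq] at h1
    have h2 : (m : G) * g ∈ M := by
      have := M.inv_mem h1
      simpa using this
    have h3 : g = (m : G)⁻¹ * ((m : G) * g) := by group
    exact hg (h3 ▸ M.mul_mem (M.inv_mem m.2) h2)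
  have hle : Nat.card (MulAction.orbit M (g : G ⧸ M)) + 1 ≤ 10 := by
    have h1 := Set.ncard_insert_of_notMem hnot (Set.toFinite _)
    have h2 : (insert ((1 : G) : G ⧸ M) (MulAction.orbit M (g : G ⧸ M))).ncard ≤ Nat.card (G ⧸ M) :=
      Set.ncard_le_card _
    rw [h1, hidx] at h2
    exact h2
  refine ⟨?_, Dvd.intro_left _ horb⟩
  by_contra hlt
  push_neg at hlt
  have h5 : Nat.card (MulAction.orbit M (g : G ⧸ M)) * Nat.card (M ⊓ cj g M : Subgroup G) ≤ 9 * 7 :=
    Nat.mul_le_mul (by omega) (by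
      have : Nat.card (Ig M g) < 8 := hlt
      exact Nat.lt_succ_iff.mp this)
  omega

end Cfsg.Agent.Lib.Helper74.O720
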