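import Mathlib
import Cfsg.Agent.Lib.Helper74.O720.Defs

set_option autoImplicit false

/-! O720 farm (helper74), piece SGN -/

namespace Cfsg.Agent.Lib.Helper74.O720

variable {G : Type*} [Group G] [Finite G] [IsSimpleGroup G]

/-- [SGN] -/
theorem SGN (h : Nat.card G = 720) {α : Type*} [Fintype α] [DecidableEq α] [MulAction G α] (g : G) :
    Equiv.Perm.sign (MulAction.toPerm g : Equiv.Perm α) = 1 := by
  let f : G →* ℤˣ := (Equiv.Perm.sign).comp (MulAction.toPermHom G α)
  rcases (MonoidHom.normal_ker f).eq_bot_or_eq_top with hb | ht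
  · exfalso
    have hinj : Function.Injective f := (MonoidHom.ker_eq_bot_iff f).mp hb
    have h2 : Nat.card G ≤ Nat.card ℤˣ := Nat.card_le_card_of_injective f hinj
    rw [h] at h2
    simp at h2
  · have h3 : g ∈ f.ker := ht ▸ Subgroup.mem_top g
    exact h3

end Cfsg.Agent.Lib.Helper74.O720
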